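import Mathlib

/-!
# Dihedral operators on modules over `𝔽₂`

`x` an involution inverting `u` of order prime to `6` on an invariant subspace `S`.
-/

set_option autoImplicit false
set_option linter.unusedSectionVars false
set_option linter.unusedSimpArgs false
set_option linter.unusedVariables false

namespace Cfsg.Agent.Lib.SFourW.Dih

variable {M : Type*} [AddCommGroup M] [Module (ZMod 2) M]

theorem aa (v : M) : v + v = 0 := ZModModule.add_self v
theorem aab (v w : M) : v + (v + w) = w := by rw [← add_assoc, aa, zero_add]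

theorem eq_of_add_zero {v w : M} (h : v + w = 0) : v = w := by
  have : v + w + w = w := by rw [h, zero_add]
  rwa [add_assoc, aa, add_zero] at this

theorem ne_add {v w : M} (h : v ≠ w) : v + w ≠ 0 := fun h0 => h (eq_of_add_zero h0)

/-- `x` is an involution inverting `u` on `S`, where `u ^ m = 1`, `m` prime to `6`. -/
structure DihS (x u u' : Module.End (ZMod 2) M) (S : Submodule (ZMod 2) M) (m : ℕ) : Prop where
  hm : u ^ m = 1
  huu' : ∀ v, u (u' v) = v
  hu'u : ∀ v, u' (u v) = v
  hxx : ∀ v, x (x v) = v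
  cop : Nat.Coprime m 6
  xS : ∀ v ∈ S, x v ∈ S
  uS : ∀ v ∈ S, u v ∈ S
  u'S : ∀ v ∈ S, u' v ∈ S
  rel : ∀ v ∈ S, x (u v) = u' (x v)

/-- `v` is of the form `[s, u]`, `s ∈ S`. -/
def InG (u : Module.End (ZMod 2) M) (S : Submodule (ZMod 2) M) (v : M) : Prop :=
  ∃ s ∈ S, v = u s + s

variable {x u u' : Module.End (ZMod 2) M} {S : Submodule (ZMod 2) M} {m : ℕ}

namespace DihS

variable (D : DihS x u u' S m)
include D

theorem rel' {v : M} (hv : v ∈ S) : x (u' v) = u (x v) := by
  have h := D.rel _ (D.u'S v hv)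
  rw [D.huu'] at h
  rw [h, D.huu']

theorem odd_m : Odd m := by
  have h := D.cop
  rw [← Nat.not_even_iff_odd]
  intro he
  have h2 : 2 ∣ Nat.gcd m 6 := Nat.dvd_gcd he.two_dvd (by norm_num)
  rw [h] at h2
  omega

theorem pow_iter {f : Module.End (ZMod 2) M} {v : M} (hv : f v = v) (k : ℕ) : (f ^ k) v = v := by
  induction k with
  | zero => simp
  | succ k ih => rw [pow_succ', Module.End.mul_apply, ih, hv]

theorem pow_fix {a : ℕ} (ha : Nat.Coprime a m) {v : M} (hv : (u ^ a) v = v) : u v = v := by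
  have hodd := D.odd_m
  by_cases hm1 : m = 1
  · have h1 := D.hm
    rw [hm1, pow_one] at h1
    rw [h1]
    rfl
  · have hm2 : 1 < m := by
      rcases hodd with ⟨k, rfl⟩
      omega
    obtain ⟨k, hk⟩ := Nat.exists_mul_mod_eq_one_of_coprime ha hm2
    have h1 : (u ^ (a * k)) v = v := by
      rw [pow_mul]
      exact pow_iter D hv k
    have h2 : u ^ (a * k) = u ^ (a * k % m) := pow_eq_pow_mod _ D.hm
    rw [h2, hk.2, pow_one] at h1
    exact h1

/-- An element of `[M, u]` fixed by `u` vanishes. -/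
theorem fixzero (s : M) (h : u (u s + s) = u s + s) : u s + s = 0 := by
  set l := u s + s with hl
  have hus : u s = s + l := by
    rw [hl, add_comm (u s) s, aab]
  have key : ∀ j : ℕ, (u ^ j) s = s + j • l := by
    intro j
    induction j with
    | zero => simp
    | succ j ih =>
      rw [pow_succ', Module.End.mul_apply, ih, map_add, map_nsmul, h, hus, succ_nsmul]
      abel
  have h1 := key m
  rw [D.hm, Module.End.one_apply] at h1
  have h2 : m • l = 0 := by
    have : s + m • l = s + 0 := by rw [← h1, add_zero]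
    exact add_left_cancel this
  obtain ⟨k, hk⟩ := D.odd_m
  rw [hk, add_nsmul, mul_nsmul', one_nsmul] at h2
  rw [two_nsmul, aa, zero_add] at h2
  exact h2

theorem exists_fix {b : M} (hb : b ∈ S) (hub : u b ≠ b) :
    ∃ b₁ ∈ S, u b₁ + b₁ ≠ 0 ∧ x (u b₁ + b₁) = u b₁ + b₁ := by
  have h0 : u b + b ≠ 0 := ne_add hub
  by_cases hfx : x (u b + b) = u b + b
  · exact ⟨b, hb, h0, hfx⟩
  · refine ⟨b + u' (x b), S.add_mem hb (D.u'S _ (D.xS _ hb)), ?_, ?_⟩
    · have h1 : u (b + u' (x b)) + (b + u' (x b)) = (u b + b) + x (u b + b) := by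
        rw [map_add, D.huu', map_add, D.rel _ hb]
        simp only [add_left_comm, add_comm, add_assoc, aa, aab, add_zero, zero_add]
      rw [h1]
      exact ne_add (fun h => hfx h.symm)
    · have h1 : u (b + u' (x b)) + (b + u' (x b)) = (u b + b) + x (u b + b) := by
        rw [map_add, D.huu', map_add, D.rel _ hb]
        simp only [add_left_comm, add_comm, add_assoc, aa, aab, add_zero, zero_add]
      rw [h1, map_add, D.hxx]
      simp only [add_left_comm, add_comm, add_assoc, aa, aab, add_zero, zero_add]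

theorem inG_add {v w : M} (hv : InG u S v) (hw : InG u S w) : InG u S (v + w) := by
  obtain ⟨s, hs, rfl⟩ := hv
  obtain ⟨t, ht, rfl⟩ := hw
  refine ⟨s + t, S.add_mem hs ht, ?_⟩
  rw [map_add]
  simp only [add_left_comm, add_comm, add_assoc, aa, aab, add_zero, zero_add]

theorem inG_u {v : M} (hv : InG u S v) : InG u S (u v) := by
  obtain ⟨s, hs, rfl⟩ := hv
  exact ⟨u s, D.uS _ hs, by rw [map_add]⟩

theorem inG_u' {v : M} (hv : InG u S v) : InG u S (u' v) := by
  obtain ⟨s, hs, rfl⟩ := hv
  exact ⟨u' s, D.u'S _ hs, by rw [map_add, D.hu'u, D.huu']⟩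

theorem inG_mem {v : M} (hv : InG u S v) : v ∈ S := by
  obtain ⟨s, hs, rfl⟩ := hv
  exact S.add_mem (D.uS _ hs) hs

theorem inG_x {v : M} (hv : InG u S v) : InG u S (x v) := by
  obtain ⟨s, hs, rfl⟩ := hv
  refine ⟨u' (x s), D.u'S _ (D.xS _ hs), ?_⟩
  rw [map_add, D.rel _ hs, D.huu', add_comm]

/-- Elements of `[S, u]` fixed by `u` are zero. -/
theorem inG_fix {v : M} (hv : InG u S v) (h : u v = v) : v = 0 := by
  obtain ⟨s, hs, rfl⟩ := hv
  exact D.fixzero s h

theorem cop_two : Nat.Coprime 2 m := by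
  have := D.odd_m
  exact (Nat.coprime_two_left).mpr this

theorem cop_four : Nat.Coprime 4 m := by
  have h := D.cop_two
  have : (4 : ℕ) = 2 * 2 := by norm_num
  rw [this]
  exact Nat.Coprime.mul_left h h

theorem cop_three : Nat.Coprime 3 m := by
  have h := D.cop
  have h1 : Nat.Coprime m 3 := Nat.Coprime.coprime_dvd_right (by norm_num : 3 ∣ 6) h
  exact h1.symm

/-- `v ∈ [S, u]` with `x v = v`, `v ≠ 0`: rank at least two. -/
theorem rank_aux {h : M} (hG : InG u S h) (h0 : h ≠ 0) (hfx : x h = h) :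
    InG u S (u h) ∧ InG u S (u (u h)) ∧ u h + x (u h) ≠ 0 ∧ u (u h) + x (u (u h)) ≠ 0 ∧
      (u h + u (u h)) + x (u h + u (u h)) ≠ 0 := by
  have hS := D.inG_mem hG
  have hnf : u h ≠ h := fun e => h0 (D.inG_fix hG e)
  have h1 : x (u h) = u' h := by rw [D.rel _ hS, hfx]
  have h2 : x (u (u h)) = u' (u' h) := by rw [D.rel _ (D.uS _ hS), h1]
  refine ⟨D.inG_u hG, D.inG_u (D.inG_u hG), ?_, ?_, ?_⟩
  · rw [h1]
    intro e
    have e1 : u h = u' h := eq_of_add_zero e
    apply hnf
    apply D.pow_fix D.cop_two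
    rw [pow_two, Module.End.mul_apply, e1, D.huu']
  · rw [h2]
    intro e
    have e1 : u (u h) = u' (u' h) := eq_of_add_zero e
    apply hnf
    apply D.pow_fix D.cop_four
    have : u ^ 4 = u * (u * (u * u)) := by
      simp only [pow_succ, pow_zero, one_mul, mul_assoc]
    rw [this]
    simp only [Module.End.mul_apply]
    rw [e1, D.huu', D.huu']
  · rw [map_add, h1, h2]
    intro e
    -- apply `u ∘ u`
    have e2 := congrArg (fun w => u (u w)) e
    simp only [map_add, map_zero, D.huu'] at e2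
    -- set `f = u³ h + h`
    have hf : u (u (u h)) + h = 0 := by
      have hG3 : InG u S (u (u (u h)) + h) :=
        ⟨u (u h) + u h + h, S.add_mem (S.add_mem (D.uS _ (D.uS _ hS)) (D.uS _ hS)) hS, by
          rw [map_add, map_add]
          simp only [add_left_comm, add_comm, add_assoc, aa, aab, add_zero, zero_add]⟩
      refine D.inG_fix hG3 ?_
      rw [map_add]
      have e3 : u (u (u (u h))) = u (u (u h)) + u h + h := by
        have := eq_of_add_zero (show u (u (u (u h))) + (u (u (u h)) + u h + h) = 0 by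
          rw [← e2]
          simp only [add_left_comm, add_comm, add_assoc, aa, aab, add_zero, zero_add])
        exact this
      rw [e3]
      simp only [add_left_comm, add_comm, add_assoc, aa, aab, add_zero, zero_add]
    apply hnf
    apply D.pow_fix D.cop_three
    have : u ^ 3 = u * (u * u) := by
      simp only [pow_succ, pow_zero, one_mul, mul_assoc]
    rw [this]
    simp only [Module.End.mul_apply]
    exact eq_of_add_zero hf

/-- The rank of `1 + x` on `S` is at least two. -/
theorem rank {b : M} (hb : b ∈ S) (hub : u b ≠ b) :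
    ∃ v₁ v₂, InG u S v₁ ∧ InG u S v₂ ∧ v₁ + x v₁ ≠ 0 ∧ v₂ + x v₂ ≠ 0 ∧
      (v₁ + v₂) + x (v₁ + v₂) ≠ 0 := by
  obtain ⟨b₁, hb₁, h0, hfx⟩ := D.exists_fix hb hub
  obtain ⟨h1, h2, h3, h4, h5⟩ := D.rank_aux ⟨b₁, hb₁, rfl⟩ h0 hfx
  exact ⟨_, _, h1, h2, h3, h4, h5⟩

/-- The conjugate involution. -/
theorem flip : DihS (u * x * u') u u' S m where
  hm := D.hm
  huu' := D.huu'
  hu'u := D.hu'u
  hxx := fun v => by
    simp only [Module.End.mul_apply]
    rw [D.hu'u, D.hxx, D.huu']
  cop := D.cop
  xS := fun v hv => by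
    simp only [Module.End.mul_apply]
    exact D.uS _ (D.xS _ (D.u'S _ hv))
  uS := D.uS
  u'S := D.u'S
  rel := fun v hv => by
    simp only [Module.End.mul_apply]
    rw [D.hu'u, D.hu'u, D.rel' hv]

/-- The rank of `(1 + x) (1 + y)`, `y = x ^ u`, on `S` is at least two. -/
theorem rank_two {b : M} (hb : b ∈ S) (hub : u b ≠ b) :
    ∃ w₁ w₂, w₁ ∈ S ∧ w₂ ∈ S ∧
      (w₁ + (u * x * u') w₁) + x (w₁ + (u * x * u') w₁) ≠ 0 ∧
      (w₂ + (u * x * u') w₂) + x (w₂ + (u * x * u') w₂) ≠ 0 ∧
      ((w₁ + w₂) + (u * x * u') (w₁ + w₂)) + x ((w₁ + w₂) + (u * x * u') (w₁ + w₂)) ≠ 0 := by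
  have Dy := D.flip
  obtain ⟨w₁, w₂, h1, h2, h3, h4, h5⟩ := Dy.rank hb hub
  -- injectivity of `1 + x` on `[S, y]`
  have key : ∀ w, InG u S w → w + (u * x * u') w ≠ 0 →
      (w + (u * x * u') w) + x (w + (u * x * u') w) ≠ 0 := by
    intro w hw hne e
    set l := w + (u * x * u') w with hl
    have hG : InG u S l := by
      rw [hl]
      refine D.inG_add hw ?_
      -- `y` preserves `[S, u]`
      simp only [Module.End.mul_apply]
      exact D.inG_u (D.inG_x (D.inG_u' hw))
    have hxl : x l = l := (eq_of_add_zero e).symm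
    have hyl : (u * x * u') l = l := by
      rw [hl, map_add, Dy.hxx]
      exact add_comm _ _
    have hu2 : u' (u' l) = l := by
      have hS := D.inG_mem hG
      have h6 : x (u (x (u' l))) = l := by
        have : u (x (u' l)) = l := hyl
        rw [this, hxl]
      rw [D.rel _ (D.xS _ (D.u'S _ hS)), D.hxx] at h6
      exact h6
    have hfix : u l = l := by
      apply D.pow_fix D.cop_two
      rw [pow_two, Module.End.mul_apply]
      have h7 := congrArg (fun w => u (u w)) hu2
      simp only [D.huu'] at h7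
      exact h7.symm
    exact hne (D.inG_fix hG hfix)
  refine ⟨w₁, w₂, D.inG_mem h1, D.inG_mem h2, key _ h1 ?_, key _ h2 ?_, key _ (D.inG_add h1 h2) ?_⟩
  · exact h3
  · exact h4
  · exact h5

/-- `u + u⁻¹` commutes with `1 + x` on `S`. -/
theorem comm_omega {t : M} (ht : t ∈ S) :
    (u t + u' t) + x (u t + u' t) = u (t + x t) + u' (t + x t) := by
  rw [map_add x, D.rel _ ht, D.rel' ht, map_add, map_add]
  simp only [add_left_comm, add_comm, add_assoc, aa, aab, add_zero, zero_add]

theorem omega_mem {t : M} (ht : t ∈ S) : u t + u' t ∈ S :=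
  S.add_mem (D.uS _ ht) (D.u'S _ ht)

theorem inG_omega {w : M} (hw : InG u S w) : InG u S (u w + u' w) :=
  D.inG_add (D.inG_u hw) (D.inG_u' hw)

theorem inG_tau {w : M} (hw : InG u S w) : InG u S (w + x w) :=
  D.inG_add hw (D.inG_x hw)

theorem omega_ne {w : M} (hw : InG u S w) (hne : w ≠ 0) : u w + u' w ≠ 0 := by
  intro e
  have e1 : u w = u' w := eq_of_add_zero e
  apply hne
  refine D.inG_fix hw (D.pow_fix D.cop_two ?_)
  rw [pow_two, Module.End.mul_apply, e1, D.huu']

theorem omega_add_ne {w : M} (hw : InG u S w) (hne : w ≠ 0) : w + (u w + u' w) ≠ 0 := by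
  intro e
  apply hne
  have hS := D.inG_mem hw
  have h1 := congrArg u e
  simp only [map_add, map_zero, D.huu'] at h1
  -- `(u + 1)(u² + u + 1) = u³ + 1`
  have h2 : u (u (u w)) + w = 0 := by
    have h3 := congrArg u h1
    simp only [map_add, map_zero] at h3
    have : u (u (u w)) + w = (u (u w) + (u (u (u w)) + u w)) + (u w + (u (u w) + w)) := by
      simp only [add_left_comm, add_comm, add_assoc, aa, aab, add_zero, zero_add]
    rw [this]
    have e5 : u w + (u (u w) + w) = 0 := h1
    have e6 : u (u w) + (u (u (u w)) + u w) = 0 := h3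
    rw [e5, e6, add_zero]
  refine D.inG_fix hw (D.pow_fix D.cop_three ?_)
  have : u ^ 3 = u * (u * u) := by
    simp only [pow_succ, pow_zero, one_mul, mul_assoc]
  rw [this]
  simp only [Module.End.mul_apply]
  exact eq_of_add_zero h2

/-- The final computation in the tight case. -/
theorem tight {g : M} (hg : InG u S g) (hτ : g + x g ≠ 0) :
    (u g + u' g) + x (u g + u' g) ≠ 0 ∧
    (u (u g + u' g) + u' (u g + u' g)) + x (u (u g + u' g) + u' (u g + u' g)) ≠ 0 ∧
    ((u g + u' g) + (u (u g + u' g) + u' (u g + u' g))) +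
      x ((u g + u' g) + (u (u g + u' g) + u' (u g + u' g))) ≠ 0 := by
  have hS := D.inG_mem hg
  have hT := D.inG_tau hg
  have h1 := D.comm_omega hS
  have hωS := D.omega_mem hS
  have h2 := D.comm_omega hωS
  have hω := D.inG_omega hT
  have hω1 := D.omega_ne hT hτ
  refine ⟨?_, ?_, ?_⟩
  · rw [h1]
    exact hω1
  · rw [h2, h1]
    exact D.omega_ne hω hω1
  · have h3 : ((u g + u' g) + (u (u g + u' g) + u' (u g + u' g))) +
        x ((u g + u' g) + (u (u g + u' g) + u' (u g + u' g))) =
        u ((g + x g) + (u (g + x g) + u' (g + x g))) +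
          u' ((g + x g) + (u (g + x g) + u' (g + x g))) := by
      have e1 : x ((u g + u' g) + (u (u g + u' g) + u' (u g + u' g))) =
          x (u g + u' g) + x (u (u g + u' g) + u' (u g + u' g)) := map_add _ _ _
      rw [e1]
      have e2 : (u g + u' g) + x (u g + u' g) = u (g + x g) + u' (g + x g) := h1
      have e3 : (u (u g + u' g) + u' (u g + u' g)) + x (u (u g + u' g) + u' (u g + u' g)) =
          u (u g + u' g + x (u g + u' g)) + u' (u g + u' g + x (u g + u' g)) := h2
      rw [e2] at e3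
      have e4 : (u g + u' g) + (u (u g + u' g) + u' (u g + u' g)) +
          (x (u g + u' g) + x (u (u g + u' g) + u' (u g + u' g))) =
          ((u g + u' g) + x (u g + u' g)) +
            ((u (u g + u' g) + u' (u g + u' g)) + x (u (u g + u' g) + u' (u g + u' g))) := by
        abel
      rw [e4, e2, e3]
      simp only [map_add]
      abel
    rw [h3]
    exact D.omega_ne (D.inG_add hT hω) (D.omega_add_ne hT hτ)

end DihS

end Cfsg.Agent.Lib.SFourW.Dih
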