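import Cfsg.Prelude.Def_PLocal
import Mathlib

/-!
# Indices of centralizers

`cI V B = |V : C_V(B)|`.
-/

set_option autoImplicit false
set_option linter.unusedSectionVars false
set_option linter.unusedSimpArgs false
set_option linter.unusedVariables false
set_option linter.style.haveILetI false

namespace Cfsg.Agent.Lib.SFourW.Idx

open Subgroup
open scoped commutatorElement

variable {G : Type*} [Group G] {G' : Type*} [Group G']

/-- `|V : C_V(B)|`. -/
noncomputable def cI (V B : Subgroup G) : ℕ := (centralizer (B : Set G)).relIndex V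

theorem cI_def (V B : Subgroup G) : cI V B = (centralizer (B : Set G)).relIndex V := rfl

/-- `C(E₁ ⊔ E₂) = C(E₁) ⊓ C(E₂)`. -/
theorem centralizer_sup' (E₁ E₂ : Subgroup G) :
    centralizer ((E₁ ⊔ E₂ : Subgroup G) : Set G) =
      centralizer (E₁ : Set G) ⊓ centralizer (E₂ : Set G) := by
  apply le_antisymm
  · exact le_inf (centralizer_le (show (E₁ : Set G) ⊆ _ from (le_sup_left : E₁ ≤ E₁ ⊔ E₂)))
      (centralizer_le (show (E₂ : Set G) ⊆ _ from (le_sup_right : E₂ ≤ E₁ ⊔ E₂)))
  · rintro x ⟨h1, h2⟩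
    have : E₁ ⊔ E₂ ≤ centralizer ({x} : Set G) := by
      refine sup_le ?_ ?_
      · intro e he
        rw [mem_centralizer_singleton_iff]
        exact ((mem_centralizer_iff.mp h1) e he)
      · intro e he
        rw [mem_centralizer_singleton_iff]
        exact ((mem_centralizer_iff.mp h2) e he)
    refine mem_centralizer_iff.mpr fun e he => ?_
    have := this he
    rwa [mem_centralizer_singleton_iff] at this

theorem cI_eq_one_iff {V B : Subgroup G} : cI V B = 1 ↔ V ≤ centralizer (B : Set G) :=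
  relIndex_eq_one

variable [Finite G]

theorem cI_ne_zero (V B : Subgroup G) : cI V B ≠ 0 := by
  unfold cI relIndex
  exact index_ne_zero_of_finite

theorem cI_pos (V B : Subgroup G) : 0 < cI V B := Nat.pos_of_ne_zero (cI_ne_zero V B)

theorem cI_mono_right (V : Subgroup G) {B₁ B₂ : Subgroup G} (h : B₁ ≤ B₂) :
    cI V B₁ ≤ cI V B₂ :=
  relIndex_le_of_le_left (centralizer_le h) (cI_ne_zero V B₂)

theorem cI_mono_left {V₁ V₂ : Subgroup G} (h : V₁ ≤ V₂) (B : Subgroup G) :
    cI V₁ B ≤ cI V₂ B :=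
  relIndex_le_of_le_right h (cI_ne_zero V₂ B)

theorem cI_symm_one {V B : Subgroup G} (h : cI V B = 1) : cI B V = 1 := by
  rw [cI_eq_one_iff] at h ⊢
  exact le_centralizer_iff.mp h

theorem card_mul_cI (V B : Subgroup G) :
    Nat.card ↥(V ⊓ centralizer (B : Set G)) * cI V B = Nat.card V := by
  have h := relIndex_mul_relIndex (⊥ : Subgroup G) (centralizer (B : Set G) ⊓ V) V bot_le inf_le_right
  rw [inf_relIndex_right, relIndex_bot_left, relIndex_bot_left, inf_comm] at h
  exact h

theorem cI_map [Finite G'] (f : G →* G') (hf : Function.Injective f) (V B : Subgroup G) :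
    cI (V.map f) (B.map f) = cI V B := by
  have h1 : centralizer ((B.map f : Subgroup G') : Set G') ⊓ V.map f =
      (centralizer (B : Set G) ⊓ V).map f := by
    ext y
    constructor
    · rintro ⟨hy, ⟨v, hv, rfl⟩⟩
      refine ⟨v, ⟨?_, hv⟩, rfl⟩
      refine mem_centralizer_iff.mpr fun b hb => ?_
      apply hf
      rw [map_mul, map_mul]
      exact (mem_centralizer_iff.mp hy) (f b) (mem_map_of_mem f hb)
    · rintro ⟨v, ⟨hv1, hv2⟩, rfl⟩
      refine ⟨?_, mem_map_of_mem f hv2⟩
      refine mem_centralizer_iff.mpr ?_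
      rintro _ ⟨b, hb, rfl⟩
      rw [← map_mul, ← map_mul, (mem_centralizer_iff.mp hv1) b hb]
  rw [cI_def, cI_def, ← inf_relIndex_right, h1, relIndex_map_map_of_injective _ _ hf,
    inf_relIndex_right]

/-- Conjugation by `g`. -/
abbrev cj (g : G) : G →* G := (MulAut.conj g).toMonoidHom

theorem cj_inj (g : G) : Function.Injective (cj g) := (MulAut.conj g).injective

theorem cI_conj (g : G) (V B : Subgroup G) : cI (V.map (cj g)) (B.map (cj g)) = cI V B :=
  cI_map _ (cj_inj g) V B

theorem cI_sup (E₁ E₂ B : Subgroup G) :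
    cI E₁ B * cI E₂ (B ⊓ centralizer (E₁ : Set G)) ≤ cI (E₁ ⊔ E₂) B := by
  set C₁ := B ⊓ centralizer (E₁ : Set G) with hC₁
  have hle : centralizer (B : Set G) ≤ centralizer (C₁ : Set G) := centralizer_le inf_le_left
  have h := relIndex_inf_mul_relIndex (centralizer (B : Set G)) (centralizer (C₁ : Set G)) (E₁ ⊔ E₂)
  rw [inf_eq_left.mpr hle] at h
  have h1 : cI E₂ C₁ ≤ (centralizer (C₁ : Set G)).relIndex (E₁ ⊔ E₂) :=
    cI_mono_left le_sup_right C₁
  have h2 : cI E₁ B ≤ (centralizer (B : Set G)).relIndex (centralizer (C₁ : Set G) ⊓ (E₁ ⊔ E₂)) := by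
    refine relIndex_le_of_le_right (le_inf ?_ le_sup_left) ?_
    · exact le_centralizer_iff.mp (inf_le_right)
    · unfold relIndex
      exact index_ne_zero_of_finite
  calc cI E₁ B * cI E₂ C₁ ≤ _ := Nat.mul_le_mul h2 h1
    _ = cI (E₁ ⊔ E₂) B := h

theorem cI_sup_left (C E₁ E₂ : Subgroup G) :
    cI C (E₁ ⊔ E₂) = cI C E₁ * cI (C ⊓ centralizer (E₁ : Set G)) E₂ := by
  have h := relIndex_inf_mul_relIndex (centralizer (E₂ : Set G)) (centralizer (E₁ : Set G)) C
  rw [cI_def C (E₁ ⊔ E₂), centralizer_sup', inf_comm, ← h, mul_comm]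
  rw [cI_def, cI_def, inf_comm C]

theorem cI_le_mul {E W : Subgroup G} (h : E ≤ W) (F : Subgroup G) :
    cI W F ≤ E.relIndex W * cI E F := by
  have h1 : (centralizer (F : Set G) ⊓ E).relIndex E = cI E F := inf_relIndex_right _ _
  have h2 := relIndex_mul_relIndex (centralizer (F : Set G) ⊓ E) E W inf_le_right h
  have h3 : cI W F ≤ (centralizer (F : Set G) ⊓ E).relIndex W := by
    refine relIndex_le_of_le_left inf_le_left ?_
    unfold relIndex
    exact index_ne_zero_of_finite
  rw [h1] at h2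
  rw [mul_comm, h2]
  exact h3

/-- The best offender inequality on a subgroup. -/
theorem cI_best {V B : Subgroup G}
    (hB : ∀ B' : Subgroup G, B' ≤ B →
      Nat.card B' * Nat.card ↥(V ⊓ centralizer (B' : Set G)) ≤
        Nat.card B * Nat.card ↥(V ⊓ centralizer (B : Set G))) {E : Subgroup G} (hE : E ≤ V) :
    cI E B ≤ cI B E := by
  set B₀ := B ⊓ centralizer (E : Set G) with hB₀
  have h1 := hB B₀ inf_le_left
  have h2 : Nat.card ↥B₀ * cI B E = Nat.card B := card_mul_cI B E
  set a := Nat.card ↥(V ⊓ centralizer (B : Set G)) with ha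
  set a₀ := Nat.card ↥(V ⊓ centralizer (B₀ : Set G)) with ha₀
  have hinc : centralizer (B : Set G) ≤ centralizer (B₀ : Set G) := centralizer_le inf_le_left
  have h3 : a * (centralizer (B : Set G)).relIndex (V ⊓ centralizer (B₀ : Set G)) = a₀ := by
    have := card_mul_cI (V ⊓ centralizer (B₀ : Set G)) B
    rw [cI_def] at this
    have e : V ⊓ centralizer (B₀ : Set G) ⊓ centralizer (B : Set G) = V ⊓ centralizer (B : Set G) := by
      rw [inf_assoc, inf_eq_right.mpr hinc]
    rw [e] at this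
    exact this
  have h4 : cI E B ≤ (centralizer (B : Set G)).relIndex (V ⊓ centralizer (B₀ : Set G)) := by
    refine relIndex_le_of_le_right (le_inf hE ?_) ?_
    · exact le_centralizer_iff.mp inf_le_right
    · unfold relIndex
      exact index_ne_zero_of_finite
  have h5 : 0 < Nat.card ↥B₀ := Nat.card_pos
  have h6 : 0 < a := Nat.card_pos
  -- `|B₀| a₀ ≤ |B| a = |B₀| r a`
  rw [← h2, ← h3] at h1
  have h7 : Nat.card ↥B₀ * (a * (centralizer (B : Set G)).relIndex (V ⊓ centralizer (B₀ : Set G))) ≤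
      Nat.card ↥B₀ * (a * cI B E) := by
    calc _ ≤ _ := h1
      _ = _ := by ring
  have h8 := Nat.le_of_mul_le_mul_left h7 h5
  have h9 := Nat.le_of_mul_le_mul_left h8 h6
  exact h4.trans h9

end Cfsg.Agent.Lib.SFourW.Idx
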