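import Cfsg.Agent.Lib.SFourW.Dih

/-!
# Sections of a module with a normal `2`-subgroup acting trivially
-/

set_option autoImplicit false
set_option linter.unusedSectionVars false
set_option linter.unusedSimpArgs false
set_option linter.unusedVariables false
set_option linter.style.haveILetI false

namespace Cfsg.Agent.Lib.SFourW.Sec

open Cfsg.Agent.Lib.SFourW.Dih

universe u v

variable {Γ : Type u} [Group Γ] {M : Type v} [AddCommGroup M] [Module (ZMod 2) M]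
  (ρ : Γ →* Module.End (ZMod 2) M)

theorem rm (g h : Γ) (v : M) : ρ (g * h) v = ρ g (ρ h v) := by rw [map_mul]; rfl
theorem r1 (v : M) : ρ 1 v = v := by rw [map_one]; rfl
theorem ri (g : Γ) (v : M) : ρ g (ρ g⁻¹ v) = v := by rw [← rm, mul_inv_cancel, r1]
theorem ri' (g : Γ) (v : M) : ρ g⁻¹ (ρ g v) = v := by rw [← rm, inv_mul_cancel, r1]

theorem exists_fixed_mod [Finite M] {K : Subgroup Γ} (hK : IsPGroup 2 K)
    (A : Submodule (ZMod 2) M)
    (hinv : ∀ k ∈ K, ∀ a ∈ A, ρ k a ∈ A) (hne : A ≠ ⊤) :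
    ∃ v, v ∉ A ∧ ∀ k ∈ K, ρ k v + v ∈ A := by
  classical
  haveI : Fact (Nat.Prime 2) := ⟨Nat.prime_two⟩
  let f : K →* Module.End (ZMod 2) (M ⧸ A) :=
    { toFun := fun k => A.mapQ A (ρ k) (fun a ha => hinv k k.2 a ha)
      map_one' := by
        apply Submodule.linearMap_qext
        ext v
        show Submodule.Quotient.mk (ρ ((1 : K) : Γ) v) = Submodule.Quotient.mk v
        rw [Subgroup.coe_one, r1]
      map_mul' := by
        intro a b
        apply Submodule.linearMap_qext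
        ext v
        show Submodule.Quotient.mk (ρ ((a * b : K) : Γ) v) =
          Submodule.Quotient.mk (ρ (a : Γ) (ρ (b : Γ) v))
        rw [Subgroup.coe_mul, rm] }
  letI act : MulAction K (M ⧸ A) := MulAction.compHom _ f
  have hact : ∀ (k : K) (v : M), k • (Submodule.Quotient.mk v : M ⧸ A) =
      Submodule.Quotient.mk (ρ (k : Γ) v) := fun _ _ => rfl
  haveI : Finite (M ⧸ A) := Finite.of_surjective _ (Submodule.Quotient.mk_surjective A)
  have h0 : (0 : M ⧸ A) ∈ MulAction.fixedPoints K (M ⧸ A) := fun k => by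
    have := hact k 0
    rw [map_zero] at this
    exact this
  have hcard : 2 ∣ Nat.card (M ⧸ A) := by
    obtain ⟨v, hv⟩ : ∃ v, v ∉ A := by
      by_contra h
      push_neg at h
      exact hne (eq_top_iff.mpr fun v _ => h v)
    have hq : (Submodule.Quotient.mk v : M ⧸ A) ≠ 0 := by
      rwa [Ne, Submodule.Quotient.mk_eq_zero]
    have hord : addOrderOf (Submodule.Quotient.mk v : M ⧸ A) = 2 :=
      addOrderOf_eq_prime (by rw [two_nsmul]; exact aa _) hq
    have h3 := addOrderOf_dvd_natCard (Submodule.Quotient.mk v : M ⧸ A)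
    rwa [hord] at h3
  obtain ⟨q, hq, hne'⟩ := hK.exists_fixed_point_of_prime_dvd_card_of_fixed_point (M ⧸ A) hcard h0
  obtain ⟨v, rfl⟩ := Submodule.Quotient.mk_surjective _ q
  refine ⟨v, ?_, fun k hk => ?_⟩
  · intro hv
    apply hne'
    exact ((Submodule.Quotient.mk_eq_zero A).mpr hv).symm
  · have h1 : (⟨k, hk⟩ : K) • (Submodule.Quotient.mk v : M ⧸ A) = Submodule.Quotient.mk v := hq _
    rw [hact] at h1
    have h2 := (Submodule.Quotient.eq A).mp h1
    rwa [ZModModule.sub_eq_add] at h2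

/-- A `K`-trivial section on which `u` acts nontrivially, with `u` trivial below. -/
theorem exists_section [Finite M] {K : Subgroup Γ} (hK : IsPGroup 2 K) {u : Γ}
    (hv : ∃ v, ρ u v ≠ v) :
    ∃ A B : Submodule (ZMod 2) M, A ≤ B ∧
      (∀ g ∈ Subgroup.normalizer (K : Set Γ), ∀ a ∈ A, ρ g a ∈ A) ∧
      (∀ g ∈ Subgroup.normalizer (K : Set Γ), ∀ b ∈ B, ρ g b ∈ B) ∧
      (∀ k ∈ K, ∀ b ∈ B, ρ k b + b ∈ A) ∧ (∀ a ∈ A, ρ u a = a) ∧ ∃ b ∈ B, ρ u b ≠ b := by
  classical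
  haveI : Finite (Submodule (ZMod 2) M) :=
    Finite.of_injective (fun A : Submodule (ZMod 2) M => (A : Set M)) SetLike.coe_injective
  let F : Set (Submodule (ZMod 2) M) :=
    {A | (∀ g ∈ Subgroup.normalizer (K : Set Γ), ∀ a ∈ A, ρ g a ∈ A) ∧ ∀ a ∈ A, ρ u a = a}
  have hF : F.Nonempty := by
    refine ⟨⊥, ?_, ?_⟩
    · intro g _ a ha
      rw [Submodule.mem_bot] at ha ⊢
      rw [ha, map_zero]
    · intro a ha
      rw [Submodule.mem_bot] at ha
      rw [ha, map_zero]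
  obtain ⟨A, hA⟩ := (Set.toFinite F).exists_maximal hF
  have hAinv := hA.1.1
  have hAu := hA.1.2
  let B : Submodule (ZMod 2) M :=
    { carrier := {v | ∀ k ∈ K, ρ k v + v ∈ A}
      add_mem' := fun {v w} hv hw k hk => by
        have := A.add_mem (hv k hk) (hw k hk)
        have e : ρ k (v + w) + (v + w) = ρ k v + v + (ρ k w + w) := by rw [map_add]; abel
        rw [e]
        exact this
      zero_mem' := fun k hk => by simp
      smul_mem' := fun c v hv k hk => by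
        have := A.smul_mem c (hv k hk)
        have e : ρ k (c • v) + c • v = c • (ρ k v + v) := by rw [map_smul, smul_add]
        rw [e]
        exact this }
  have hBmem : ∀ v, v ∈ B ↔ ∀ k ∈ K, ρ k v + v ∈ A := fun v => Iff.rfl
  have hKN : K ≤ Subgroup.normalizer (K : Set Γ) := Subgroup.le_normalizer
  have hAB : A ≤ B := fun a ha k hk => A.add_mem (hAinv k (hKN hk) a ha) ha
  have hBinv : ∀ g ∈ Subgroup.normalizer (K : Set Γ), ∀ b ∈ B, ρ g b ∈ B := by
    intro g hg b hb k hk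
    have hk' : g⁻¹ * k * g ∈ K := by
      have := (Subgroup.mem_normalizer_iff.1 (inv_mem hg) k).1 hk
      rwa [inv_inv] at this
    have h1 := hAinv g hg _ (hb _ hk')
    have e : ρ g (ρ (g⁻¹ * k * g) b + b) = ρ k (ρ g b) + ρ g b := by
      rw [map_add, rm, rm, ri]
    rwa [e] at h1
  by_cases hmv : ∃ b ∈ B, ρ u b ≠ b
  · exact ⟨A, B, hAB, hAinv, hBinv, fun k hk b hb => hb k hk, hAu, hmv⟩
  · exfalso
    push_neg at hmv
    have hBF : B ∈ F := ⟨hBinv, hmv⟩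
    have hBA : B ≤ A := hA.2 hBF hAB
    by_cases htop : A = ⊤
    · obtain ⟨v, hv⟩ := hv
      exact hv (hAu v (by rw [htop]; trivial))
    · obtain ⟨v, hvA, hvK⟩ := exists_fixed_mod ρ hK A (fun k hk => hAinv k (hKN hk)) htop
      exact hvA (hBA hvK)

/-- The operator induced on the quotient. -/
def qop (A : Submodule (ZMod 2) M) (g : Γ) (hg : ∀ a ∈ A, ρ g a ∈ A) :
    Module.End (ZMod 2) (M ⧸ A) :=
  A.mapQ A (ρ g) (fun a ha => hg a ha)

theorem qop_mk (A : Submodule (ZMod 2) M) (g : Γ) (hg : ∀ a ∈ A, ρ g a ∈ A) (v : M) :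
    qop ρ A g hg (Submodule.Quotient.mk v) = Submodule.Quotient.mk (ρ g v) := rfl

section quotD

variable {K : Subgroup Γ} {A B : Submodule (ZMod 2) M} {u x : Γ} {m : ℕ}

theorem quotD (hA : ∀ g ∈ Subgroup.normalizer (K : Set Γ), ∀ a ∈ A, ρ g a ∈ A)
    (hB : ∀ g ∈ Subgroup.normalizer (K : Set Γ), ∀ b ∈ B, ρ g b ∈ B)
    (hKt : ∀ k ∈ K, ∀ b ∈ B, ρ k b + b ∈ A)
    (hu : u ∈ Subgroup.normalizer (K : Set Γ)) (hx : x ∈ Subgroup.normalizer (K : Set Γ))
    (hum : u ^ m = 1) (hcop : Nat.Coprime m 6) (hxx : ∀ v, ρ x (ρ x v) = v)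
    (hrel : x * u * x⁻¹ * u ∈ K) :
    DihS (qop ρ A x (hA x hx)) (qop ρ A u (hA u hu)) (qop ρ A u⁻¹ (hA u⁻¹ (inv_mem hu)))
      (B.map A.mkQ) m where
  hm := by
    have key : ∀ (n : ℕ) (v : M), ((qop ρ A u (hA u hu)) ^ n) (Submodule.Quotient.mk v) =
        Submodule.Quotient.mk (ρ (u ^ n) v) := by
      intro n
      induction n with
      | zero =>
        intro v
        rw [pow_zero, pow_zero, r1]
        rfl
      | succ n ih =>
        intro v
        rw [pow_succ, Module.End.mul_apply, qop_mk, ih, pow_succ, rm]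
    apply Submodule.linearMap_qext
    ext v
    show ((qop ρ A u (hA u hu)) ^ m) (Submodule.Quotient.mk v) = Submodule.Quotient.mk v
    rw [key, hum, r1]
  huu' := by
    intro q
    obtain ⟨v, rfl⟩ := Submodule.Quotient.mk_surjective _ q
    rw [qop_mk, qop_mk, ri]
  hu'u := by
    intro q
    obtain ⟨v, rfl⟩ := Submodule.Quotient.mk_surjective _ q
    rw [qop_mk, qop_mk, ri']
  hxx := by
    intro q
    obtain ⟨v, rfl⟩ := Submodule.Quotient.mk_surjective _ q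
    rw [qop_mk, qop_mk, hxx]
  cop := hcop
  xS := by
    rintro _ ⟨b, hb, rfl⟩
    exact ⟨ρ x b, hB x hx b hb, rfl⟩
  uS := by
    rintro _ ⟨b, hb, rfl⟩
    exact ⟨ρ u b, hB u hu b hb, rfl⟩
  u'S := by
    rintro _ ⟨b, hb, rfl⟩
    exact ⟨ρ u⁻¹ b, hB u⁻¹ (inv_mem hu) b hb, rfl⟩
  rel := by
    rintro _ ⟨b, hb, rfl⟩
    show qop ρ A x _ (qop ρ A u _ (Submodule.Quotient.mk b)) =
      qop ρ A u⁻¹ _ (qop ρ A x _ (Submodule.Quotient.mk b))
    rw [qop_mk, qop_mk, qop_mk, qop_mk]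
    rw [Submodule.Quotient.eq, ZModModule.sub_eq_add]
    have hc : ρ u⁻¹ (ρ x b) ∈ B := hB u⁻¹ (inv_mem hu) _ (hB x hx b hb)
    have h1 := hKt _ hrel _ hc
    have e : ρ (x * u * x⁻¹ * u) (ρ u⁻¹ (ρ x b)) = ρ x (ρ u b) := by
      have h0 : x * u * x⁻¹ * u * (u⁻¹ * x) = x * u := by group
      rw [← rm ρ u⁻¹ x b, ← rm ρ (x * u * x⁻¹ * u), h0, rm]
    rwa [e] at h1

end quotD

variable {K : Subgroup Γ} {u x : Γ} {m : ℕ}

/-- A moved vector modulo `A`. -/
theorem not_mem_of_moved {A : Submodule (ZMod 2) M} {b : M} (huf : ∀ a ∈ A, ρ u a = a)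
    (hum : u ^ m = 1) (hodd : Odd m) (hub : ρ u b ≠ b) : ρ u b + b ∉ A := by
  intro hin
  have h1 := huf _ hin
  have hDfix : ∀ j : ℕ, ρ (u ^ j) b = b + j • (ρ u b + b) := by
    intro j
    induction j with
    | zero => simp [r1]
    | succ j ih =>
      rw [pow_succ', rm, ih, map_add, map_nsmul, h1, succ_nsmul]
      have e : ρ u b = b + (ρ u b + b) := by
        rw [add_comm (ρ u b) b, aab]
      have e3 : b + (j • (ρ u b + b) + (ρ u b + b)) = b + (ρ u b + b) + j • (ρ u b + b) := by abel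
      rw [e3, ← e]
  have h4 := hDfix m
  rw [hum, r1] at h4
  have h5 : m • (ρ u b + b) = 0 := by
    have : b + m • (ρ u b + b) = b + 0 := by rw [← h4, add_zero]
    exact add_left_cancel this
  obtain ⟨k, hk⟩ := hodd
  rw [hk, add_nsmul, mul_nsmul', one_nsmul, two_nsmul, aa, zero_add] at h5
  exact hub (eq_of_add_zero h5)

/-- The section together with two vectors witnessing rank two. -/
theorem exists_prefix [Finite M] (hK : IsPGroup 2 K)
    (hu : u ∈ Subgroup.normalizer (K : Set Γ)) (hx : x ∈ Subgroup.normalizer (K : Set Γ))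
    (hum : u ^ m = 1) (hcop : Nat.Coprime m 6) (hxx : ∀ v, ρ x (ρ x v) = v)
    (hrel : x * u * x⁻¹ * u ∈ K) (hv : ∃ v, ρ u v ≠ v) :
    ∃ (A B : Submodule (ZMod 2) M)
      (hA : ∀ g ∈ Subgroup.normalizer (K : Set Γ), ∀ a ∈ A, ρ g a ∈ A)
      (hB : ∀ g ∈ Subgroup.normalizer (K : Set Γ), ∀ b ∈ B, ρ g b ∈ B)
      (hKt : ∀ k ∈ K, ∀ b ∈ B, ρ k b + b ∈ A),
      A ≤ B ∧ (∀ a ∈ A, ρ u a = a) ∧ ∃ c₁ c₂, c₁ ∈ B ∧ c₂ ∈ B ∧
        InG (qop ρ A u (hA u hu)) (B.map A.mkQ) (Submodule.Quotient.mk c₁) ∧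
        ρ x c₁ + c₁ ∉ A ∧ ρ x c₂ + c₂ ∉ A ∧ ρ x (c₁ + c₂) + (c₁ + c₂) ∉ A := by
  obtain ⟨A, B, hAB, hA, hB, hKt, huf, b, hb, hub⟩ := exists_section ρ hK hv
  have D := quotD ρ hA hB hKt hu hx hum hcop hxx hrel
  have hmvd : qop ρ A u (hA u hu) (Submodule.Quotient.mk b) ≠ Submodule.Quotient.mk b := by
    rw [qop_mk, Ne, Submodule.Quotient.eq, ZModModule.sub_eq_add]
    exact not_mem_of_moved ρ huf hum D.odd_m hub
  obtain ⟨g₁, g₂, h1, h2, h3, h4, h5⟩ := D.rank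
    (⟨b, hb, rfl⟩ : (Submodule.Quotient.mk b : M ⧸ A) ∈ B.map A.mkQ) hmvd
  obtain ⟨c₁, hc₁, rfl⟩ := D.inG_mem h1
  obtain ⟨c₂, hc₂, rfl⟩ := D.inG_mem h2
  refine ⟨A, B, hA, hB, hKt, hAB, huf, c₁, c₂, hc₁, hc₂, h1, ?_, ?_, ?_⟩
  · intro e
    apply h3
    show (Submodule.Quotient.mk c₁ : M ⧸ A) + qop ρ A x _ (Submodule.Quotient.mk c₁) = 0
    rw [qop_mk, ← Submodule.Quotient.mk_add, add_comm]
    exact (Submodule.Quotient.mk_eq_zero A).mpr e
  · intro e
    apply h4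
    show (Submodule.Quotient.mk c₂ : M ⧸ A) + qop ρ A x _ (Submodule.Quotient.mk c₂) = 0
    rw [qop_mk, ← Submodule.Quotient.mk_add, add_comm]
    exact (Submodule.Quotient.mk_eq_zero A).mpr e
  · intro e
    apply h5
    show (Submodule.Quotient.mk c₁ + Submodule.Quotient.mk c₂ : M ⧸ A) +
      qop ρ A x _ (Submodule.Quotient.mk c₁ + Submodule.Quotient.mk c₂) = 0
    rw [← Submodule.Quotient.mk_add, qop_mk, ← Submodule.Quotient.mk_add, add_comm]
    exact (Submodule.Quotient.mk_eq_zero A).mpr e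

/-- The rank of `1 + x` is at least two. -/
theorem rank_ge [Finite M] (hK : IsPGroup 2 K)
    (hu : u ∈ Subgroup.normalizer (K : Set Γ)) (hx : x ∈ Subgroup.normalizer (K : Set Γ))
    (hum : u ^ m = 1) (hcop : Nat.Coprime m 6) (hxx : ∀ v, ρ x (ρ x v) = v)
    (hrel : x * u * x⁻¹ * u ∈ K) (hv : ∃ v, ρ u v ≠ v) :
    ∃ v₁ v₂, ρ x v₁ + v₁ ≠ 0 ∧ ρ x v₂ + v₂ ≠ 0 ∧ ρ x (v₁ + v₂) + (v₁ + v₂) ≠ 0 := by
  obtain ⟨A, B, hA, hB, hKt, hAB, huf, c₁, c₂, -, -, -, h1, h2, h3⟩ :=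
    exists_prefix ρ hK hu hx hum hcop hxx hrel hv
  refine ⟨c₁, c₂, ?_, ?_, ?_⟩
  · intro e
    exact h1 (by rw [e]; exact A.zero_mem)
  · intro e
    exact h2 (by rw [e]; exact A.zero_mem)
  · intro e
    exact h3 (by rw [e]; exact A.zero_mem)

end Cfsg.Agent.Lib.SFourW.Sec
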