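import Cfsg.Agent.Lib.SFourW.Sec

/-!
# The tight case: a contradiction to the squared inequality
-/

set_option autoImplicit false
set_option linter.unusedSectionVars false
set_option linter.unusedSimpArgs false
set_option linter.unusedVariables false
set_option linter.style.haveILetI false

namespace Cfsg.Agent.Lib.SFourW.Tight

open Cfsg.Agent.Lib.SFourW.Dih Cfsg.Agent.Lib.SFourW.Sec

universe u v

variable {Γ : Type u} [Group Γ] {M : Type v} [AddCommGroup M] [Module (ZMod 2) M]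
  (ρ : Γ →* Module.End (ZMod 2) M)

/-- `1 + g` as an operator. -/
def tau (g : Γ) : Module.End (ZMod 2) M := ρ g + 1

theorem tau_apply (g : Γ) (v : M) : tau ρ g v = ρ g v + v := rfl

theorem card_ker_mul_range [Finite M] (f : Module.End (ZMod 2) M) :
    Nat.card M = Nat.card (LinearMap.ker f) * Nat.card (LinearMap.range f) := by
  rw [Submodule.card_eq_card_quotient_mul_card (LinearMap.ker f)]
  congr 1
  exact Nat.card_congr (LinearMap.quotKerEquivRange f).toEquiv

theorem card_range_le [Finite M] {f : Module.End (ZMod 2) M} (h : Nat.card M ≤ 4 * Nat.card (LinearMap.ker f)) :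
    Nat.card (LinearMap.range f) ≤ 4 := by
  have h1 := card_ker_mul_range f
  have h2 : 0 < Nat.card (LinearMap.ker f) := Nat.card_pos
  rw [h1, mul_comm] at h
  exact Nat.le_of_mul_le_mul_right h h2

theorem range_four [Finite M] (T : Module.End (ZMod 2) M)
    (hcard : Nat.card M ≤ 4 * Nat.card (LinearMap.ker T)) {a b : M} (ha : a ≠ 0) (hb : b ≠ 0)
    (hab : a + b ≠ 0) (hra : a ∈ LinearMap.range T) (hrb : b ∈ LinearMap.range T) (v : M) :
    T v = 0 ∨ T v = a ∨ T v = b ∨ T v = a + b := by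
  classical
  by_contra hne
  push_neg at hne
  obtain ⟨h0, h1, h2, h3⟩ := hne
  have hle := card_range_le hcard
  have ha' : a ≠ b := fun e => hab (by rw [e]; exact aa b)
  have h4 : a ≠ a + b := fun e => hb (by
    have : a + 0 = a + b := by rw [add_zero]; exact e
    exact (add_left_cancel this).symm)
  have h5 : b ≠ a + b := fun e => ha (by
    have : 0 + b = a + b := by rw [zero_add]; exact e
    exact (add_right_cancel this).symm)
  let F : Finset M := {0, a, b, a + b, T v}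
  have hF : F.card = 5 := by
    simp only [F]
    rw [Finset.card_insert_of_notMem, Finset.card_insert_of_notMem, Finset.card_insert_of_notMem,
      Finset.card_insert_of_notMem, Finset.card_singleton]
    · simp only [Finset.mem_singleton]
      exact fun e => h3 e.symm
    · simp only [Finset.mem_insert, Finset.mem_singleton]
      rintro (e | e)
      · exact h5 e
      · exact h2 e.symm
    · simp only [Finset.mem_insert, Finset.mem_singleton]
      rintro (e | e | e)
      · exact ha' e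
      · exact h4 e
      · exact h1 e.symm
    · simp only [Finset.mem_insert, Finset.mem_singleton]
      rintro (e | e | e | e)
      · exact ha e.symm
      · exact hb e.symm
      · exact hab e.symm
      · exact h0 e.symm
  have hsub : (F : Set M) ⊆ (LinearMap.range T : Set M) := by
    intro w hw
    simp only [F, Finset.coe_insert, Finset.coe_singleton, Set.mem_insert_iff,
      Set.mem_singleton_iff] at hw
    rcases hw with rfl | rfl | rfl | rfl | rfl
    · exact Submodule.zero_mem _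
    · exact hra
    · exact hrb
    · exact Submodule.add_mem _ hra hrb
    · exact ⟨v, rfl⟩
  have h6 := Set.ncard_le_ncard hsub (Set.toFinite _)
  rw [Set.ncard_coe_finset, hF] at h6
  have h7 : Nat.card (LinearMap.range T) = (LinearMap.range T : Set M).ncard :=
    Nat.card_coe_set_eq _
  omega

/-- The product of the conjugates of `s` by `g` and `g⁻¹`. -/
def e1 (g s : Γ) : Γ := (g⁻¹ * s * g) * (g * s * g⁻¹)

section

variable {K : Subgroup Γ} {u x s : Γ} {m : ℕ}

/-- `S = 1 + s`, `g` acting trivially on the image of `S`. -/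
theorem conj_formula {g : Γ} (hg : ∀ w, ρ g⁻¹ (tau ρ s w) = tau ρ s w) (v : M) :
    ρ (g⁻¹ * s * g) v = v + tau ρ s (ρ g v) := by
  rw [rm, rm]
  have h1 : ρ s (ρ g v) = tau ρ s (ρ g v) + ρ g v := by
    rw [tau_apply, add_assoc, aa, add_zero]
  rw [h1, map_add, hg, ri', add_comm]

theorem e1_formula {g : Γ} (hss : ∀ v, ρ s (ρ s v) = v)
    (hg : ∀ w, ρ g (tau ρ s w) = tau ρ s w) (hg' : ∀ w, ρ g⁻¹ (tau ρ s w) = tau ρ s w) (v : M) :
    ρ (e1 g s) v = v + tau ρ s ((ρ g + ρ g⁻¹) v) := by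
  have hSS : ∀ w, tau ρ s (tau ρ s w) = 0 := by
    intro w
    rw [tau_apply, tau_apply, map_add, hss, add_comm w]
    simp only [add_left_comm, add_comm, add_assoc, aa, aab, add_zero, zero_add]
  have h2 : ρ (g * s * g⁻¹) v = v + tau ρ s (ρ g⁻¹ v) := by
    have := conj_formula (s := s) (g := g⁻¹) ρ (by rwa [inv_inv]) v
    rwa [inv_inv] at this
  show ρ ((g⁻¹ * s * g) * (g * s * g⁻¹)) v = _
  rw [rm, h2, conj_formula ρ hg', map_add, hg, map_add, hSS, add_zero, LinearMap.add_apply, map_add]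
  abel

end

section

variable {S O P : Module.End (ZMod 2) M}

theorem ee_formula (hOS : ∀ w, O (S w) = 0) (hPS : ∀ w, P (S w) = 0)
    (v : M) : (v + S (P v)) + S (O (v + S (P v))) = v + S (P v) + S (O v) := by
  rw [map_add O, hOS, add_zero]

end

variable {K : Subgroup Γ} {u x s : Γ} {m : ℕ}

/-- The outcome of the tight analysis. -/
structure TightOut (ρ : Γ →* Module.End (ZMod 2) M) (e₁ e₂ : Γ) : Prop where
  inv₁ : ∀ v, ρ e₁ (ρ e₁ v) = v
  inv₂ : ∀ v, ρ e₂ (ρ e₂ v) = v
  comm : ∀ v, ρ e₁ (ρ e₂ v) = ρ e₂ (ρ e₁ v)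
  ne₁ : ∃ v, ρ e₁ v ≠ v
  ne₂ : ∃ v, ρ e₂ v ≠ v
  ne₁₂ : ∃ v, ρ e₁ (ρ e₂ v) ≠ v
  le : ∀ v, ρ e₁ v = v → ρ e₂ v = v

/-- `u` acts trivially on `M / B`. -/
theorem u_trivial_mod [Finite M] (hK : IsPGroup 2 K) {B : Submodule (ZMod 2) M}
    (hB : ∀ g ∈ Subgroup.normalizer (K : Set Γ), ∀ b ∈ B, ρ g b ∈ B)
    (hu : u ∈ Subgroup.normalizer (K : Set Γ)) (hx : x ∈ Subgroup.normalizer (K : Set Γ))
    (hum : u ^ m = 1) (hcop : Nat.Coprime m 6) (hxx : ∀ v, ρ x (ρ x v) = v)
    (hrel : x * u * x⁻¹ * u ∈ K) (hTB : ∀ v, ρ x v + v ∈ B) (v : M) : ρ u v + v ∈ B := by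
  have hKN : K ≤ Subgroup.normalizer (K : Set Γ) := Subgroup.le_normalizer
  have hxinv : ∀ w, ρ x⁻¹ w = ρ x w := by
    intro w
    have h1 := ri' ρ x (ρ x w)
    rwa [hxx] at h1
  set k₀ := x * u * x⁻¹ * u with hk₀
  -- step (iii)
  have h3 : ∀ w, ρ k₀ w + ρ (u * u) w ∈ B := by
    intro w
    set v' := ρ (u * u) w with hv'
    have hy : ρ u (ρ x (ρ u⁻¹ v')) + v' ∈ B := by
      have h1 := hB u hu _ (hTB (ρ u⁻¹ v'))
      rwa [map_add, ri] at h1
    have h2 := hB x hx _ hy
    have h4 := B.add_mem h2 (hTB v')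
    have e : ρ x (ρ u (ρ x (ρ u⁻¹ v')) + v') + (ρ x v' + v') = ρ k₀ w + v' := by
      have e1 : ρ u⁻¹ v' = ρ u w := by
        rw [hv', rm, ri']
      rw [map_add, e1]
      have e2 : ρ k₀ w = ρ x (ρ u (ρ x (ρ u w))) := by
        rw [hk₀, rm, rm, rm, hxinv]
      rw [e2]
      simp only [add_left_comm, add_comm, add_assoc, aa, aab, add_zero, zero_add]
    rwa [e] at h4
  -- step (iv)
  have h5 : ∀ (n : ℕ) (w : M), ρ (k₀ ^ n) w + ρ ((u * u) ^ n) w ∈ B := by
    intro n
    induction n with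
    | zero =>
      intro w
      rw [pow_zero, pow_zero, r1, aa]
      exact B.zero_mem
    | succ n ih =>
      intro w
      rw [pow_succ, pow_succ, rm ρ (k₀ ^ n) k₀, rm ρ ((u * u) ^ n) (u * u)]
      have h6 := hB (k₀ ^ n) (pow_mem (hKN hrel) n) _ (h3 w)
      have h7 := ih (ρ (u * u) w)
      have h8 := B.add_mem h6 h7
      rw [map_add] at h8
      have e : ρ (k₀ ^ n) (ρ k₀ w) + ρ (k₀ ^ n) (ρ (u * u) w) +
          (ρ (k₀ ^ n) (ρ (u * u) w) + ρ ((u * u) ^ n) (ρ (u * u) w)) =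
          ρ (k₀ ^ n) (ρ k₀ w) + ρ ((u * u) ^ n) (ρ (u * u) w) := by
        simp only [add_left_comm, add_comm, add_assoc, aa, aab, add_zero, zero_add]
      rwa [e] at h8
  obtain ⟨a, ha⟩ := hK ⟨k₀, hrel⟩
  have hk1 : k₀ ^ 2 ^ a = 1 := by
    have := congrArg Subtype.val ha
    simpa using this
  set d := (u * u) ^ 2 ^ a with hd
  have h9 : ∀ w, ρ d w + w ∈ B := by
    intro w
    have := h5 (2 ^ a) w
    rw [hk1, r1] at this
    rw [add_comm]
    exact this
  have h10 : ∀ (j : ℕ) (w : M), ρ (d ^ j) w + w ∈ B := by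
    intro j
    induction j with
    | zero =>
      intro w
      rw [pow_zero, r1, aa]
      exact B.zero_mem
    | succ j ih =>
      intro w
      rw [pow_succ, rm]
      have h8 := B.add_mem (ih (ρ d w)) (h9 w)
      have e : ρ (d ^ j) (ρ d w) + ρ d w + (ρ d w + w) = ρ (d ^ j) (ρ d w) + w := by
        simp only [add_left_comm, add_comm, add_assoc, aa, aab, add_zero, zero_add]
      rwa [e] at h8
  have hd' : d = u ^ (2 * 2 ^ a) := by
    rw [hd, pow_mul, pow_two]
  have hodd : Odd m := by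
    rw [← Nat.not_even_iff_odd]
    intro he
    have h2 : 2 ∣ Nat.gcd m 6 := Nat.dvd_gcd he.two_dvd (by norm_num)
    rw [hcop] at h2
    omega
  by_cases hm1 : m = 1
  · have : u = 1 := by
      have := hum
      rwa [hm1, pow_one] at this
    rw [this, r1, aa]
    exact B.zero_mem
  · have hm2 : 1 < m := by
      rcases hodd with ⟨k, rfl⟩
      omega
    have hc : Nat.Coprime (2 * 2 ^ a) m := by
      have h2 : Nat.Coprime 2 m := (Nat.coprime_two_left).mpr hodd
      exact Nat.Coprime.mul_left h2 (Nat.Coprime.pow_left a h2)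
    obtain ⟨j, hj⟩ := Nat.exists_mul_mod_eq_one_of_coprime hc hm2
    have h11 : d ^ j = u := by
      rw [hd', ← pow_mul, pow_eq_pow_mod _ hum, hj.2, pow_one]
    have := h10 j v
    rwa [h11] at this

/-- The tight analysis. -/
theorem tight_final [Finite M] (hK : IsPGroup 2 K)
    (hu : u ∈ Subgroup.normalizer (K : Set Γ)) (hx : x ∈ Subgroup.normalizer (K : Set Γ))
    (hum : u ^ m = 1) (hcop : Nat.Coprime m 6) (hxx : ∀ v, ρ x (ρ x v) = v)
    (hrel : x * u * x⁻¹ * u ∈ K) (hv : ∃ v, ρ u v ≠ v)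
    (hs : s ∈ K) (hss : ∀ v, ρ s (ρ s v) = v) (hfix : ∀ v, ρ x v = v ↔ ρ s v = v)
    (hcard : Nat.card M ≤ 4 * Nat.card (LinearMap.ker (tau ρ x))) :
    TightOut ρ (e1 u s) (e1 (u * u) s) ∧
      Nat.card M ≤ 4 * Nat.card (LinearMap.ker (tau ρ (e1 u s))) := by
  obtain ⟨A, B, hA, hB, hKt, hAB, huf, c₁, c₂, hc₁, hc₂, hG, h1, h2, h3⟩ :=
    exists_prefix ρ hK hu hx hum hcop hxx hrel hv
  have D := quotD ρ hA hB hKt hu hx hum hcop hxx hrel
  have hKN : K ≤ Subgroup.normalizer (K : Set Γ) := Subgroup.le_normalizer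
  set T : Module.End (ZMod 2) M := tau ρ x with hT
  set S : Module.End (ZMod 2) M := tau ρ s with hS
  have hTa : ∀ v, T v = ρ x v + v := fun _ => rfl
  have hSa : ∀ v, S v = ρ s v + v := fun _ => rfl
  have ha : T c₁ ≠ 0 := fun e => h1 (by rw [← hTa, e]; exact A.zero_mem)
  have hb : T c₂ ≠ 0 := fun e => h2 (by rw [← hTa, e]; exact A.zero_mem)
  have hadd : T (c₁ + c₂) = T c₁ + T c₂ := map_add _ _ _
  have hab : T c₁ + T c₂ ≠ 0 := fun e => h3 (by
    rw [← hTa, hadd, e]
    exact A.zero_mem)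
  have hall := range_four T hcard ha hb hab ⟨c₁, rfl⟩ ⟨c₂, rfl⟩
  have h1' : T c₁ ∉ A := h1
  have h2' : T c₂ ∉ A := h2
  have h3' : T c₁ + T c₂ ∉ A := fun e => h3 (by rw [← hTa, hadd]; exact e)
  -- (a)
  have hTA : ∀ v, T v ∈ A → T v = 0 := by
    intro v hvA
    rcases hall v with h | h | h | h
    · exact h
    · rw [h] at hvA
      exact absurd hvA h1'
    · rw [h] at hvA
      exact absurd hvA h2'
    · rw [h] at hvA
      exact absurd hvA h3'
  -- (b)
  have hdec : ∀ v, ∃ c ∈ B, T (v + c) = 0 := by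
    intro v
    rcases hall v with h | h | h | h
    · exact ⟨0, B.zero_mem, by rw [add_zero, h]⟩
    · exact ⟨c₁, hc₁, by rw [map_add, h, aa]⟩
    · exact ⟨c₂, hc₂, by rw [map_add, h, aa]⟩
    · exact ⟨c₁ + c₂, B.add_mem hc₁ hc₂, by rw [map_add, h, hadd, aa]⟩
  have hT1B : T c₁ ∈ B := B.add_mem (hB x hx _ hc₁) hc₁
  have hT2B : T c₂ ∈ B := B.add_mem (hB x hx _ hc₂) hc₂
  have hTB : ∀ v, ρ x v + v ∈ B := by
    intro v
    rw [← hTa]
    rcases hall v with h | h | h | h
    · rw [h]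
      exact B.zero_mem
    · rw [h]
      exact hT1B
    · rw [h]
      exact hT2B
    · rw [h]
      exact B.add_mem hT1B hT2B
  have hker : ∀ v, T v = 0 ↔ S v = 0 := by
    intro v
    rw [hTa, hSa]
    constructor
    · intro e
      have := (hfix v).mp (eq_of_add_zero e)
      rw [this, aa]
    · intro e
      have := (hfix v).mpr (eq_of_add_zero e)
      rw [this, aa]
  -- `S` maps into `A`
  have hSA : ∀ v, S v ∈ A := by
    intro v
    obtain ⟨c, hc, h⟩ := hdec v
    have h4 : S (v + c) = 0 := (hker _).mp h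
    rw [map_add] at h4
    rw [eq_of_add_zero h4]
    exact hKt s hs c hc
  have hUS : ∀ w, ρ u (S w) = S w := fun w => huf _ (hSA w)
  have hU'S : ∀ w, ρ u⁻¹ (S w) = S w := by
    intro w
    have := ri' ρ u (S w)
    rwa [hUS] at this
  have hWS : ∀ w, ρ (u * u) (S w) = S w := by
    intro w
    rw [rm, hUS, hUS]
  have hW'S : ∀ w, ρ (u * u)⁻¹ (S w) = S w := by
    intro w
    rw [mul_inv_rev, rm, hU'S, hU'S]
  set O : Module.End (ZMod 2) M := ρ u + ρ u⁻¹ with hO
  set O₂ : Module.End (ZMod 2) M := ρ (u * u) + ρ (u * u)⁻¹ with hO₂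
  have hOa : ∀ v, O v = ρ u v + ρ u⁻¹ v := fun _ => rfl
  have hO₂a : ∀ v, O₂ v = ρ (u * u) v + ρ (u * u)⁻¹ v := fun _ => rfl
  have hf1 : ∀ v, ρ (e1 u s) v = v + S (O v) := e1_formula ρ hss hUS hU'S
  have hf2 : ∀ v, ρ (e1 (u * u) s) v = v + S (O₂ v) := e1_formula ρ hss hWS hW'S
  have hOS : ∀ w, O (S w) = 0 := by
    intro w
    rw [hOa, hUS, hU'S, aa]
  have hO₂S : ∀ w, O₂ (S w) = 0 := by
    intro w
    rw [hO₂a, hWS, hW'S, aa]
  have hOO : ∀ v, O₂ v = O (O v) := by
    intro v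
    rw [hOa, hOa, hO₂a, map_add, map_add, ri, ri', mul_inv_rev, rm, rm]
    simp only [add_left_comm, add_comm, add_assoc, aa, aab, add_zero, zero_add]
  -- the quotient dictionary
  let q : M → M ⧸ A := fun w => Submodule.Quotient.mk w
  have hq1 : ∀ w, qop ρ A u (hA u hu) (q w) + qop ρ A u⁻¹ (hA u⁻¹ (inv_mem hu)) (q w) = q (O w) := by
    intro w
    rfl
  have hq2 : ∀ w, q w + qop ρ A x (hA x hx) (q w) = q (T w) := by
    intro w
    show (Submodule.Quotient.mk w : M ⧸ A) + Submodule.Quotient.mk (ρ x w) =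
      Submodule.Quotient.mk (ρ x w + w)
    rw [← Submodule.Quotient.mk_add, add_comm]
  have hq0 : ∀ w, q w = 0 ↔ w ∈ A := fun w => Submodule.Quotient.mk_eq_zero A
  have hτ : q c₁ + qop ρ A x (hA x hx) (q c₁) ≠ 0 := by
    rw [hq2, Ne, hq0]
    exact h1'
  obtain ⟨t1, t2, t3⟩ := D.tight hG hτ
  rw [hq1, hq2, Ne, hq0] at t1
  rw [hq1, hq1, hq2, Ne, hq0] at t2
  rw [hq1, hq1] at t3
  have t3' : T (O c₁ + O (O c₁)) ∉ A := by
    intro e
    apply t3
    have e1 : q (O c₁) + q (O (O c₁)) = q (O c₁ + O (O c₁)) := rfl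
    rw [e1, hq2]
    exact (hq0 _).mpr e
  have hne : ∀ w, T w ∉ A → S w ≠ 0 := by
    intro w hw e
    apply hw
    rw [(hker w).mpr e]
    exact A.zero_mem
  have hone : ∀ {v w : M}, v + w = v → w = 0 := by
    intro v w e
    exact add_eq_left.mp e
  -- `u` is trivial modulo `B`
  have hub := u_trivial_mod ρ hK hB hu hx hum hcop hxx hrel hTB
  have hOB : ∀ v, O v ∈ B := by
    intro v
    have h5 : ρ u⁻¹ v + v ∈ B := by
      have h6 := hB u⁻¹ (inv_mem hu) _ (hub v)
      rw [map_add, ri'] at h6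
      rw [add_comm]
      exact h6
    have h7 := B.add_mem (hub v) h5
    have e : ρ u v + v + (ρ u⁻¹ v + v) = O v := by
      rw [hOa]
      simp only [add_left_comm, add_comm, add_assoc, aa, aab, add_zero, zero_add]
    rwa [e] at h7
  refine ⟨⟨?_, ?_, ?_, ⟨c₁, ?_⟩, ⟨c₁, ?_⟩, ⟨c₁, ?_⟩, ?_⟩, ?_⟩
  · intro v
    rw [hf1, hf1, ee_formula hOS hOS, add_assoc, aa, add_zero]
  · intro v
    rw [hf2, hf2, ee_formula hO₂S hO₂S, add_assoc, aa, add_zero]
  · intro v
    rw [hf1, hf2, hf1, hf2, ee_formula hOS hO₂S, ee_formula hO₂S hOS]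
    abel
  · intro e
    rw [hf1] at e
    exact hne _ t1 (hone e)
  · intro e
    rw [hf2, hOO] at e
    exact hne _ t2 (hone e)
  · intro e
    rw [hf1, hf2, ee_formula hOS hO₂S, add_assoc, hOO, ← map_add, add_comm (O (O c₁))] at e
    exact hne _ t3' (hone e)
  · intro v e
    rw [hf1] at e
    have h5 : S (O v) = 0 := hone e
    have h6 : T (O v) = 0 := (hker _).mpr h5
    have ht : q (O v) ∈ B.map A.mkQ := ⟨O v, hOB v, rfl⟩
    have h7 := D.comm_omega ht
    rw [hq2, h6] at h7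
    have h8 : q (0 : M) = 0 := Submodule.Quotient.mk_zero A
    rw [h8, map_zero, map_zero, add_zero, hq1, hq2, hq0] at h7
    have h9 : T (O (O v)) = 0 := hTA _ h7
    rw [hf2, hOO, (hker _).mp h9, add_zero]
  · have hkerST : Nat.card (LinearMap.ker S) = Nat.card (LinearMap.ker T) := by
      have : LinearMap.ker S = LinearMap.ker T := by
        ext w
        rw [LinearMap.mem_ker, LinearMap.mem_ker, hker]
      rw [this]
    have hcS : Nat.card (LinearMap.range S) ≤ 4 := by
      apply card_range_le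
      rw [hkerST]
      exact hcard
    have hle : LinearMap.range (tau ρ (e1 u s)) ≤ LinearMap.range S := by
      rintro _ ⟨v, rfl⟩
      refine ⟨O v, ?_⟩
      rw [tau_apply ρ (e1 u s), hf1]
      simp only [add_left_comm, add_comm, add_assoc, aa, aab, add_zero, zero_add]
    have hcR : Nat.card (LinearMap.range (tau ρ (e1 u s))) ≤ Nat.card (LinearMap.range S) :=
      Nat.card_le_card_of_injective (Submodule.inclusion hle) (Submodule.inclusion_injective hle)
    rw [card_ker_mul_range (tau ρ (e1 u s)), mul_comm]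
    exact Nat.mul_le_mul_right _ (hcR.trans hcS)

end Cfsg.Agent.Lib.SFourW.Tight
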